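import Cfsg.Agent.Lib.TC.G.He
import Cfsg.Agent.Lib.TC.Simple

set_option autoImplicit false

namespace Cfsg.Agent.Lib.TC.Data.HeS3

open Cfsg.Agent.Lib.TC

noncomputable def aE_0_0 (k : ℕ) : ℕ := Nat.land (Nat.shiftRight (nat_lit 0x161e0e2500533c4c2e006a354564005d7b8a8300749a93a100b1c0b9aa00d0c9d8e0) (Nat.mul (Nat.land k (nat_lit 255)) (nat_lit 8))) (nat_lit 255)
noncomputable def aE (k : ℕ) : ℕ := Bool.rec (nat_lit 0) (aE_0_0 k) (Nat.blt k (nat_lit 256))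

noncomputable def aR_0_0 (k : ℕ) : ℕ := Nat.land (Nat.shiftRight (nat_lit 0xaa3a83ac3a03000663545723000000463a43a232a50000005054232c50000002830002030001470431030000001a1000181161) (Nat.mul (Nat.land k (nat_lit 255)) (nat_lit 12))) (nat_lit 4095)
noncomputable def aR (k : ℕ) : ℕ := Bool.rec (nat_lit 0) (aR_0_0 k) (Nat.blt k (nat_lit 256))

noncomputable def aK_0_0 (k : ℕ) : ℕ := Nat.land (Nat.shiftRight (nat_lit 0x664d59440) (Nat.mul (Nat.land k (nat_lit 255)) (nat_lit 5))) (nat_lit 31)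
noncomputable def aK (k : ℕ) : ℕ := Bool.rec (nat_lit 0) (aK_0_0 k) (Nat.blt k (nat_lit 256))

noncomputable def aT_0_0 (k : ℕ) : ℕ := Nat.land (Nat.shiftRight (nat_lit 0xdb572656cad389920a040) (Nat.mul (Nat.land k (nat_lit 255)) (nat_lit 3))) (nat_lit 7)
noncomputable def aT (k : ℕ) : ℕ := Bool.rec (nat_lit 0) (aT_0_0 k) (Nat.blt k (nat_lit 256))

noncomputable def aN_0_0 (k : ℕ) : ℕ := Nat.land (Nat.shiftRight (nat_lit 0x1ac688) (Nat.mul (Nat.land k (nat_lit 255)) (nat_lit 3))) (nat_lit 7)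
noncomputable def aN (k : ℕ) : ℕ := Bool.rec (nat_lit 0) (aN_0_0 k) (Nat.blt k (nat_lit 256))

noncomputable def tT (i g : ℕ) : ℕ := aT (Nat.add (Nat.mul i (nat_lit 4)) g)

def words : List (List ℕ) := [[0,0],[1,1],[2,2],[3,3],[0,2,0,2,0,2],[0,3,0,3,0,3],[0,1,0,1,0,1],[2,3,2,3,2,3,2,3],[2,1,2,1],[3,1,3,1],[1,3,2,3,2],[0],[1],[3]]

noncomputable def Fk (k : ℕ) : Bool := checkKey (nat_lit 5) (nat_lit 4) (nat_lit 3) (nat_lit 7) aE (wordAt words) (nat_lit 11) (nat_lit 14) aR aK (nat_lit 14) (nat_lit 4) (nat_lit 15) (nat_lit 4) (nat_lit 15) k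

noncomputable def cert : Cert where
  sz := 5
  ep := 4
  b := 3
  m := 7
  E := aE
  W := wordAt words
  nrel := 11
  nW := 14
  K := 256
  R := aR
  pk := aK
  fuel := 14
  bp := 4
  mp := 15
  bw := 4
  mw := 15

noncomputable def Fp (i : ℕ) : Bool := ptFin2 (nat_lit 7) (nat_lit 4) tT aN (nat_lit 5) (nat_lit 4) (nat_lit 3) (nat_lit 7) aE (nat_lit 14) i

end Cfsg.Agent.Lib.TC.Data.HeS3
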